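import Cfsg.Agent.H15.Transfer
import Cfsg.Agent.H15.Data.OrbA352
import Cfsg.Agent.H15.Data.OrbA1100
import Cfsg.Agent.H15.Data.OrbA4125
import Cfsg.Agent.H15.Data.OrbA5600

/-! The suborbits of the stabiliser of a norm 6 vector on the 11178. -/

set_option autoImplicit false

namespace Cfsg.Agent.H15

open Finset

/-- Code of the representative of the suborbit of length 352. -/
def ca352 : ℕ := 0x888a88aaaaa8888888888a8a
/-- Code of the representative of the suborbit of length 1100. -/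
def ca1100 : ℕ := 0xa888aaa8a8a8888888888866
/-- Code of the representative of the suborbit of length 4125. -/
def ca4125 : ℕ := 0xa888aaa8a86888888888886a
/-- Code of the representative of the suborbit of length 5600. -/
def ca5600 : ℕ := 0xa88aaa8a8a88888888888668

/-- Representative of the suborbit of length 352. -/
def ba352 : ↥leechLattice := ofCode ca352 (by decide +kernel)
/-- Representative of the suborbit of length 1100. -/
def ba1100 : ↥leechLattice := ofCode ca1100 (by decide +kernel)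
/-- Representative of the suborbit of length 4125. -/
def ba4125 : ↥leechLattice := ofCode ca4125 (by decide +kernel)
/-- Representative of the suborbit of length 5600. -/
def ba5600 : ↥leechLattice := ofCode ca5600 (by decide +kernel)

/-- The joint stabiliser of two vectors. -/
def stab2 (a b : ↥leechLattice) : Subgroup ↥Co0 :=
  MulAction.stabilizer ↥Co0 a ⊓ MulAction.stabilizer ↥Co0 b

theorem memA {y : ↥leechLattice} {c : ℕ} (hy : y.1 = vecOf c) {d : ℤ}
    (h : (dotPP c c == 32 && dotPP cV c == -16 && dotPP cA c == d) = true) :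
    y ∈ setA bV ∧ dotInt bA.1 y.1 = d := by
  simp only [Bool.and_eq_true, beq_iff_eq] at h
  exact ⟨⟨by rw [hy, sqNorm_vecOf]; exact h.1.1, by rw [hy]; exact (dot_vecOf cV c).trans h.1.2⟩,
    by rw [hy]; exact (dot_vecOf cA c).trans h.2⟩

theorem fixCodes_VA_le2 : fixCodes [cV, cA] ≤ stab2 bV bA :=
  le_inf (fixCodes_le_stab (List.mem_cons_self ..) rfl)
    (fixCodes_le_stab (List.mem_cons_of_mem _ (List.mem_cons_self ..)) rfl)

theorem stabA_inv : ∀ g ∈ stab2 bV bA, ∀ y ∈ setA bV, g • y ∈ setA bV := by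
  intro g hg y hy
  have := (smul_mem_setA g).2 hy
  rwa [MulAction.mem_stabilizer_iff.1 hg.1] at this

/-- Suborbit of length 352. -/
theorem orbitA_352 : MulAction.orbit ↥(stab2 bV bA) ba352 =
      {y | y ∈ setA bV ∧ dotInt bA.1 y.1 = -8} ∧ {y | y ∈ setA bV ∧ dotInt bA.1 y.1 = -8}.ncard = 352 :=
  sub_orbit orbit_bA.2.2 Data.gensHS_ok Data.pcsHS_eq Data.certA352_ok [cV, cA] (by decide +kernel) _
    fixCodes_VA_le2 stabA_inv (c0 := cA) rfl (fun _ hg => hg.2)
    (congrArg vecOf (by decide +kernel : ca352 = Data.certA352.pt 0))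
    (memA (c := ca352) (d := -8) rfl (by decide +kernel)).1
    (memA (c := ca352) (d := -8) rfl (by decide +kernel)).2 (by decide +kernel)

/-- Suborbit of length 1100. -/
theorem orbitA_1100 : MulAction.orbit ↥(stab2 bV bA) ba1100 =
      {y | y ∈ setA bV ∧ dotInt bA.1 y.1 = 16} ∧ {y | y ∈ setA bV ∧ dotInt bA.1 y.1 = 16}.ncard = 1100 :=
  sub_orbit orbit_bA.2.2 Data.gensHS_ok Data.pcsHS_eq Data.certA1100_ok [cV, cA] (by decide +kernel) _
    fixCodes_VA_le2 stabA_inv (c0 := cA) rfl (fun _ hg => hg.2)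
    (congrArg vecOf (by decide +kernel : ca1100 = Data.certA1100.pt 0))
    (memA (c := ca1100) (d := 16) rfl (by decide +kernel)).1
    (memA (c := ca1100) (d := 16) rfl (by decide +kernel)).2 (by decide +kernel)

/-- Suborbit of length 4125. -/
theorem orbitA_4125 : MulAction.orbit ↥(stab2 bV bA) ba4125 =
      {y | y ∈ setA bV ∧ dotInt bA.1 y.1 = 0} ∧ {y | y ∈ setA bV ∧ dotInt bA.1 y.1 = 0}.ncard = 4125 :=
  sub_orbit orbit_bA.2.2 Data.gensHS_ok Data.pcsHS_eq Data.certA4125_ok [cV, cA] (by decide +kernel) _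
    fixCodes_VA_le2 stabA_inv (c0 := cA) rfl (fun _ hg => hg.2)
    (congrArg vecOf (by decide +kernel : ca4125 = Data.certA4125.pt 0))
    (memA (c := ca4125) (d := 0) rfl (by decide +kernel)).1
    (memA (c := ca4125) (d := 0) rfl (by decide +kernel)).2 (by decide +kernel)

/-- Suborbit of length 5600. -/
theorem orbitA_5600 : MulAction.orbit ↥(stab2 bV bA) ba5600 =
      {y | y ∈ setA bV ∧ dotInt bA.1 y.1 = 8} ∧ {y | y ∈ setA bV ∧ dotInt bA.1 y.1 = 8}.ncard = 5600 :=
  sub_orbit orbit_bA.2.2 Data.gensHS_ok Data.pcsHS_eq Data.certA5600_ok [cV, cA] (by decide +kernel) _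
    fixCodes_VA_le2 stabA_inv (c0 := cA) rfl (fun _ hg => hg.2)
    (congrArg vecOf (by decide +kernel : ca5600 = Data.certA5600.pt 0))
    (memA (c := ca5600) (d := 8) rfl (by decide +kernel)).1
    (memA (c := ca5600) (d := 8) rfl (by decide +kernel)).2 (by decide +kernel)

theorem setA_values {y : ↥leechLattice} (hy : y ∈ setA bV) (hne : y ≠ bA) :
    dotInt bA.1 y.1 = -8 ∨ dotInt bA.1 y.1 = 16 ∨ dotInt bA.1 y.1 = 0 ∨ dotInt bA.1 y.1 = 8 := by
  have h := cover_values orbit_bA.2.2 (x0 := bA) (c0 := cA) rfl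
    (fun d => d == -8 || d == 16 || d == 0 || d == 8) (by decide +kernel) hy hne
  simpa only [Bool.or_eq_true, beq_iff_eq, or_assoc] using h

/-- The five suborbits on the 11178. -/
theorem rank_five {u x : ↥leechLattice} (hu : sqNorm (u : GolayPt → ℤ) = 48) (hx : x ∈ setA u) :
    ∃ y₁ ∈ setA u, ∃ y₂ ∈ setA u, ∃ y₃ ∈ setA u, ∃ y₄ ∈ setA u,
      (MulAction.orbit ↥(stab2 u x) y₁).ncard = 352 ∧ (MulAction.orbit ↥(stab2 u x) y₂).ncard = 1100 ∧
      (MulAction.orbit ↥(stab2 u x) y₃).ncard = 4125 ∧ (MulAction.orbit ↥(stab2 u x) y₄).ncard = 5600 ∧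
      setA u = {x} ∪ MulAction.orbit ↥(stab2 u x) y₁ ∪ MulAction.orbit ↥(stab2 u x) y₂ ∪
        MulAction.orbit ↥(stab2 u x) y₃ ∪ MulAction.orbit ↥(stab2 u x) y₄ := by
  obtain ⟨g, g1, g2⟩ := exists_redA hu hx
  have hK : ∀ h, h ∈ stab2 u x ↔ g * h * g⁻¹ ∈ stab2 bV bA := fun h => by
    simp only [stab2, Subgroup.mem_inf, ← g1, ← g2, ← mem_stab_conj]
  have hS : ∀ y, g • y ∈ setA bV ↔ y ∈ setA u := fun y => by rw [← g1]; exact smul_mem_setA g
  have horb : ∀ r y : ↥leechLattice, y ∈ MulAction.orbit ↥(stab2 u x) (g⁻¹ • r) ↔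
      g • y ∈ MulAction.orbit ↥(stab2 bV bA) r := fun r y => by
    have h := orbit_transport g hK (g⁻¹ • r)
    rw [smul_inv_smul] at h
    rw [h]
    exact ⟨fun hy => ⟨y, hy, rfl⟩, fun ⟨z, hz, e⟩ => MulAction.injective g e ▸ hz⟩
  have key : ∀ r : ↥leechLattice, (MulAction.orbit ↥(stab2 u x) (g⁻¹ • r)).ncard =
      (MulAction.orbit ↥(stab2 bV bA) r).ncard := fun r =>
    ncard_pullback g _ _ fun y => (horb r y).symm
  refine ⟨g⁻¹ • ba352, ?_, g⁻¹ • ba1100, ?_, g⁻¹ • ba4125, ?_, g⁻¹ • ba5600, ?_,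
    (key _).trans (by rw [orbitA_352.1, orbitA_352.2]), (key _).trans (by rw [orbitA_1100.1, orbitA_1100.2]),
    (key _).trans (by rw [orbitA_4125.1, orbitA_4125.2]),
    (key _).trans (by rw [orbitA_5600.1, orbitA_5600.2]), ?_⟩
  · rw [← hS, smul_inv_smul]; exact (memA (c := ca352) (d := -8) rfl (by decide +kernel)).1
  · rw [← hS, smul_inv_smul]; exact (memA (c := ca1100) (d := 16) rfl (by decide +kernel)).1
  · rw [← hS, smul_inv_smul]; exact (memA (c := ca4125) (d := 0) rfl (by decide +kernel)).1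
  · rw [← hS, smul_inv_smul]; exact (memA (c := ca5600) (d := 8) rfl (by decide +kernel)).1
  · ext y
    simp only [Set.mem_union, Set.mem_singleton_iff, horb, orbitA_352.1, orbitA_1100.1, orbitA_4125.1,
      orbitA_5600.1, Set.mem_ofPred_eq, hS]
    constructor
    · intro hy
      by_cases he : y = x
      · exact Or.inl (Or.inl (Or.inl (Or.inl he)))
      · rcases setA_values ((hS y).2 hy) (fun e => he (MulAction.injective g (e.trans g2.symm)))
          with h | h | h | h
        · exact Or.inl (Or.inl (Or.inl (Or.inr ⟨hy, h⟩)))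
        · exact Or.inl (Or.inl (Or.inr ⟨hy, h⟩))
        · exact Or.inl (Or.inr ⟨hy, h⟩)
        · exact Or.inr ⟨hy, h⟩
    · rintro ((((rfl | h) | h) | h) | h)
      exacts [hx, h.1, h.1, h.1, h.1]

end Cfsg.Agent.H15
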