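import Mathlib
import Cfsg.Prelude.Def_Sporadic_a

/-!
The 24-dimensional coordinate representation of `Cfsg.Co0` over a commutative ring in which `8` is
invertible, read off the images of the lattice vectors `8 e_j`.
-/

set_option autoImplicit false
open Cfsg Matrix

namespace Cfsg.Agent.H15

/-- The vector with a single coordinate `8`. -/
def eightE (j : GolayPt) : GolayPt → ℤ := Pi.single j 8

theorem eightE_mem (j : GolayPt) : eightE j ∈ leechLattice := by
  have h4 : ∀ i, eightE j i ≡ 0 [ZMOD 4] := fun i => by
    by_cases h : i = j <;> simp [eightE, h, Int.ModEq]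
  refine AddSubgroup.subset_closure ⟨0, fun i => ?_, ?_, fun k => ?_⟩
  · by_cases h : i = j <;> simp [eightE, h, Int.ModEq]
  · simp [eightE, Int.ModEq, -Fintype.sum_option]
  · by_cases hk : (0 : ℤ) ≡ k [ZMOD 4]
    · refine ⟨1, Submodule.subset_span (Set.mem_union_right _ rfl), ?_⟩
      ext i
      simp [support₂, (h4 i).trans hk]
    · refine ⟨0, Submodule.zero_mem _, ?_⟩
      ext i
      simp only [support₂, Finset.mem_filter, Finset.mem_univ, true_and, Pi.zero_apply, ne_eq,
        not_true_eq_false, false_iff]
      exact fun hik => hk ((h4 i).symm.trans hik)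

/-- `8 e_j` as an element of the lattice. -/
def eightL (j : GolayPt) : ↥leechLattice := ⟨eightE j, eightE_mem j⟩

/-- All coordinates of a lattice vector have the same parity. -/
theorem leech_coord_parity {x : GolayPt → ℤ} (hx : x ∈ leechLattice) (i j : GolayPt) :
    (2 : ℤ) ∣ x i - x j := by
  induction hx using AddSubgroup.closure_induction with
  | mem y hy =>
    obtain ⟨m, hm, -, -⟩ := hy
    have h1 := hm i; have h2 := hm j
    unfold Int.ModEq at h1 h2
    omega
  | zero => simp
  | add a b _ _ ha hb => simp only [Pi.add_apply]; omega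
  | neg a _ ha => simp only [Pi.neg_apply]; omega

/-- An element of `Co0` as an additive map of the lattice. -/
def co0Hom (g : ↥Co0) : ↥leechLattice →+ ↥leechLattice :=
  AddMonoidHom.mk' (fun x => (g : Equiv.Perm ↥leechLattice) x) g.2.1

theorem co0Hom_apply (g : ↥Co0) (x : ↥leechLattice) : co0Hom g x = g • x := rfl

/-- Eight times the image of a lattice vector, expanded over the coordinate vectors. -/
theorem eight_mul_image (g : ↥Co0) (x : ↥leechLattice) (i : GolayPt) :
    8 * (g • x : ↥leechLattice).1 i = ∑ j, x.1 j * (g • eightL j : ↥leechLattice).1 i := by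
  have h : (8 : ℤ) • x = ∑ j, x.1 j • eightL j := by
    apply Subtype.ext
    funext k
    simp [eightL, eightE, Finset.sum_apply, Pi.single_apply, mul_comm, -Fintype.sum_option]
  have h2 := congrArg (fun y => (co0Hom g y).1 i) h
  simp only [map_zsmul, map_sum] at h2
  simpa [AddSubgroup.val_finsetSum, Finset.sum_apply, co0Hom_apply] using h2

variable {R : Type*} [CommRing R]

/-- Coordinates read in the ring `R`. -/
def castVec (R : Type*) [CommRing R] (x : GolayPt → ℤ) : GolayPt → R := fun i => (x i : R)

/-- The matrix of `g` over `R`, where `c` is the inverse of `8`. -/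
def coordMat (c : R) (g : ↥Co0) : Matrix GolayPt GolayPt R :=
  fun i j => c * ((g • eightL j : ↥leechLattice).1 i : R)

theorem coordMat_mulVec {c : R} (hc : c * 8 = 1) (g : ↥Co0) (x : ↥leechLattice) :
    coordMat c g *ᵥ castVec R x.1 = castVec R (g • x : ↥leechLattice).1 := by
  funext i
  have h := congrArg (fun z : ℤ => c * (z : R)) (eight_mul_image g x i)
  simp only [Int.cast_mul, Int.cast_sum, Int.cast_ofNat, ← mul_assoc, hc, one_mul,
    Finset.mul_sum] at h
  simp only [castVec]
  rw [h]
  simp only [Matrix.mulVec, dotProduct, coordMat, castVec]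
  exact Finset.sum_congr rfl fun k _ => by ring

theorem coordMat_one {c : R} (hc : c * 8 = 1) : coordMat c (1 : ↥Co0) = 1 := by
  ext i j
  by_cases h : i = j <;> simp [coordMat, eightL, eightE, Matrix.one_apply, h, hc]

theorem coordMat_mul {c : R} (hc : c * 8 = 1) (g h : ↥Co0) :
    coordMat c (g * h) = coordMat c g * coordMat c h := by
  ext i j
  have := congrFun (coordMat_mulVec hc g (h • eightL j)) i
  simp only [castVec, ← mul_smul] at this
  simp only [coordMat, Matrix.mul_apply, ← this, Matrix.mulVec, dotProduct, Finset.mul_sum, castVec]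
  exact Finset.sum_congr rfl fun k _ => by ring

/-- The coordinate representation of `Co0` over `R`. -/
def coordRep {c : R} (hc : c * 8 = 1) : ↥Co0 →* Matrix GolayPt GolayPt R where
  toFun := coordMat c
  map_one' := coordMat_one hc
  map_mul' := coordMat_mul hc

/-- The coordinate representation modulo `n` is faithful once `n ^ 2 > 128`. -/
theorem coordMat_eq_one_imp {n : ℕ} {c : ZMod n} (hc : c * 8 = 1) (hn : 128 < n ^ 2)
    {g : ↥Co0} (h : coordMat c g = 1) : g = 1 := by
  have key : ∀ j, g • eightL j = eightL j := by
    intro j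
    apply Subtype.ext
    set y := (g • eightL j : ↥leechLattice).1 with hy
    have hn2 : (128 : ℤ) < (n : ℤ) ^ 2 := by exact_mod_cast hn
    have hmem : y - eightE j ∈ leechLattice := sub_mem (g • eightL j).2 (eightE_mem j)
    have hdvd : ∀ i, (n : ℤ) ∣ y i - eightE j i := by
      intro i
      rw [← ZMod.intCast_eq_intCast_iff_dvd_sub]
      have := congrFun (congrFun h i) j
      simp only [coordMat, ← hy] at this
      have h8 := congrArg (fun z => (8 : ZMod n) * z) this
      simp only [← mul_assoc, mul_comm (8 : ZMod n) c, hc, one_mul] at h8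
      rw [h8]
      by_cases hij : i = j <;> simp [eightE, Matrix.one_apply, hij]
    choose k hk using hdvd
    have hny : sqNorm y = 64 := by
      have := g.2.2 (eightL j)
      rw [show sqNorm y = sqNorm (eightL j).1 from this]
      simp [sqNorm, eightL, eightE, Pi.single_apply, ite_pow]
    have hle : ∑ i, (y i - eightE j i) ^ 2 ≤ 256 := by
      calc ∑ i, (y i - eightE j i) ^ 2 ≤ ∑ i, (2 * y i ^ 2 + 2 * eightE j i ^ 2) :=
            Finset.sum_le_sum fun i _ => by nlinarith [sq_nonneg (y i + eightE j i)]
        _ = 256 := by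
            rw [Finset.sum_add_distrib, ← Finset.mul_sum, ← Finset.mul_sum]
            have : sqNorm (eightE j) = 64 := by simp [sqNorm, eightE, Pi.single_apply, ite_pow]
            unfold sqNorm at hny this
            rw [hny, this]; norm_num
    have hle' : (n : ℤ) ^ 2 * ∑ i, k i ^ 2 ≤ 256 := by
      rw [Finset.mul_sum]
      refine le_trans (le_of_eq (Finset.sum_congr rfl fun i _ => ?_)) hle
      rw [hk i]; ring
    have hk1 : ∑ i, k i ^ 2 ≤ 1 := by nlinarith
    by_contra hne
    obtain ⟨i, hi⟩ : ∃ i, y i ≠ eightE j i := Function.ne_iff.mp hne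
    have hki : k i ≠ 0 := by
      intro h0; rw [← sub_ne_zero, hk i, h0, mul_zero] at hi; exact hi rfl
    obtain ⟨i', hi'⟩ : ∃ i' : GolayPt, i' ≠ i := exists_ne i
    have hki' : k i' = 0 := by
      by_contra h0
      have hp : (∑ l ∈ ({i, i'} : Finset GolayPt), k l ^ 2) ≤ ∑ l, k l ^ 2 :=
        Finset.sum_le_sum_of_subset_of_nonneg (Finset.subset_univ _) fun l _ _ => sq_nonneg _
      rw [Finset.sum_pair hi'.symm] at hp
      have := Int.one_le_abs hki; have := Int.one_le_abs h0
      have := sq_abs (k i); have := sq_abs (k i')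
      nlinarith
    have hpar := leech_coord_parity hmem i i'
    simp only [Pi.sub_apply, hk i, hk i', hki', mul_zero, sub_zero] at hpar
    have hsq : k i ^ 2 ≤ 1 := le_trans (Finset.single_le_sum (f := fun l => k l ^ 2)
      (fun l _ => sq_nonneg (k l)) (Finset.mem_univ i)) hk1
    have : k i = 1 ∨ k i = -1 := by
      have h1 : k i ≤ 1 := by nlinarith
      have h2 : -1 ≤ k i := by nlinarith
      omega
    have hn_odd : ¬ (2 : ℤ) ∣ n := by
      intro hd
      have hd' : 2 ∣ n := by exact_mod_cast hd
      have := congrArg (ZMod.castHom hd' (ZMod 2)) hc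
      rw [map_mul, map_one, map_ofNat, show (8 : ZMod 2) = 0 from rfl, mul_zero] at this
      exact zero_ne_one this
    rcases this with h1 | h1 <;> rw [h1] at hpar <;> simp at hpar <;> exact hn_odd hpar
  apply Subtype.ext
  apply Equiv.ext
  intro x
  change g • x = x
  apply Subtype.ext
  funext i
  have h8 := eight_mul_image g x i
  simp only [key] at h8
  simp [eightL, eightE, Pi.single_apply] at h8
  linarith

end Cfsg.Agent.H15
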