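import Mathlib

/-! Congruences modulo two in an even lattice without roots, given by a Gram matrix. -/

set_option autoImplicit false
open Matrix

namespace Cfsg.Agent.H15

variable {n : Type*} [Fintype n] [DecidableEq n]

/-- In an even lattice without norm 2 vectors, two norm 8 vectors congruent modulo two are equal,
opposite or orthogonal. -/
theorem even_rootless_congr (B : Matrix n n ℤ) (hsymm : B.IsSymm)
    (hpos : ∀ x : n → ℤ, x ≠ 0 → 0 < x ⬝ᵥ (B *ᵥ x))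
    (heven : ∀ x : n → ℤ, (2 : ℤ) ∣ x ⬝ᵥ (B *ᵥ x)) (h2 : ∀ x : n → ℤ, x ⬝ᵥ (B *ᵥ x) ≠ 2)
    (x y : n → ℤ) (hx : x ⬝ᵥ (B *ᵥ x) = 8) (hy : y ⬝ᵥ (B *ᵥ y) = 8)
    (hc : ∀ i, (2 : ℤ) ∣ (x - y) i) : y = x ∨ y = -x ∨ x ⬝ᵥ (B *ᵥ y) = 0 := by
  choose z hz using hc
  have e : x = y + (2 : ℤ) • z := by
    funext i; have := hz i; simp only [Pi.sub_apply, Pi.add_apply, Pi.smul_apply, smul_eq_mul] at *
    omega
  have hs : ∀ a b : n → ℤ, a ⬝ᵥ (B *ᵥ b) = b ⬝ᵥ (B *ᵥ a) := fun a b => by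
    rw [dotProduct_mulVec, ← mulVec_transpose, hsymm.eq, dotProduct_comm]
  have h4 : ∀ a : n → ℤ, a = 0 ∨ 4 ≤ a ⬝ᵥ (B *ᵥ a) := by
    intro a
    rcases eq_or_ne a 0 with h | h
    · exact Or.inl h
    · have := hpos a h; have := heven a; have := h2 a; right; omega
  have k1 : x ⬝ᵥ (B *ᵥ y) = 8 + 2 * (z ⬝ᵥ (B *ᵥ y)) := by
    rw [e, add_dotProduct, hy, smul_dotProduct, smul_eq_mul]
  have k2 : x ⬝ᵥ (B *ᵥ x) = 8 + 4 * (z ⬝ᵥ (B *ᵥ y)) + 4 * (z ⬝ᵥ (B *ᵥ z)) := by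
    rw [e, mulVec_add, add_dotProduct, dotProduct_add, dotProduct_add, mulVec_smul, dotProduct_smul,
      dotProduct_smul, smul_dotProduct, smul_dotProduct, hy, hs y z]
    simp only [smul_eq_mul]; ring
  have k3 : (y + z) ⬝ᵥ (B *ᵥ (y + z)) = 8 + 2 * (z ⬝ᵥ (B *ᵥ y)) + z ⬝ᵥ (B *ᵥ z) := by
    rw [mulVec_add, add_dotProduct, dotProduct_add, dotProduct_add, hy, hs y z]; ring
  rcases h4 z with hz0 | hz4
  · left; rw [e, hz0, smul_zero, add_zero]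
  rcases h4 (y + z) with hw0 | hw4
  · right; left
    have : z = -y := eq_neg_of_add_eq_zero_right hw0
    rw [e, this]; funext i; simp; ring
  · right; right; omega

end Cfsg.Agent.H15
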