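import Mathlib
import Cfsg.Prelude.Def_Sporadic_a

/-! Short vectors congruent modulo twice an integral lattice of minimum at least 32. -/

set_option autoImplicit false
open Cfsg

namespace Cfsg.Agent.H15

/-- In an integer lattice of minimum at least 32, two vectors of squared length at most 64 congruent
modulo twice the lattice are equal, opposite, or both of squared length 64 and orthogonal. -/
theorem short_congr {α : Type*} [Fintype α] {L : AddSubgroup (α → ℤ)}
    (hmin : ∀ x ∈ L, x ≠ 0 → 32 ≤ sqNorm x) {v w : α → ℤ} (hw : w ∈ L)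
    (hvn : sqNorm v ≤ 64) (hwn : sqNorm w ≤ 64) (hc : ∃ z ∈ L, v - w = 2 • z) :
    v = w ∨ v = -w ∨ (sqNorm v = 64 ∧ sqNorm w = 64 ∧ dotInt v w = 0) := by
  obtain ⟨z, hz, e⟩ := hc
  have e' : v = w + 2 • z := by rw [← e]; abel
  have k1 : sqNorm v = sqNorm w + 4 * dotInt w z + 4 * sqNorm z := by
    simp only [e', sqNorm, dotInt, Finset.mul_sum, ← Finset.sum_add_distrib, two_nsmul,
      Pi.add_apply]
    exact Finset.sum_congr rfl fun i _ => by ring
  have k2 : sqNorm (w + z) = sqNorm w + 2 * dotInt w z + sqNorm z := by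
    simp only [sqNorm, dotInt, Finset.mul_sum, ← Finset.sum_add_distrib, Pi.add_apply]
    exact Finset.sum_congr rfl fun i _ => by ring
  have k3 : dotInt v w = sqNorm w + 2 * dotInt w z := by
    simp only [e', sqNorm, dotInt, Finset.mul_sum, ← Finset.sum_add_distrib, two_nsmul,
      Pi.add_apply]
    exact Finset.sum_congr rfl fun i _ => by ring
  by_cases hz0 : z = 0
  · left; simp [e', hz0]
  by_cases hw0 : w + z = 0
  · right; left
    rw [e', eq_neg_of_add_eq_zero_right hw0]; abel
  right; right
  have h1 := hmin z hz hz0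
  have h2 := hmin _ (add_mem hw hz) hw0
  omega

end Cfsg.Agent.H15
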