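import Cfsg.Agent.H18.Monster.Form
import Cfsg.Agent.H14.LeechModTwo
import Cfsg.Agent.H15.ShortClasses

/-! The Leech lattice modulo two: faithfulness, irreducibility, the totally singular subgroup. -/

set_option autoImplicit false

namespace Cfsg.Agent.H15

open Finset Cfsg.Agent.H14

theorem oo_ne_ll : (oo : GolayPt) ≠ ll := by decide

/-- An element of `Co0` fixing all classes modulo two is central. -/
theorem mem_center_of_fix_classes {g : Co0}
    (hg : ∀ x, IsLeech x → ∃ z, IsLeech z ∧ act g x - x = 2 • z) : g ∈ Subgroup.center Co0 := by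
  have hmin : ∀ x, IsLeech x → sqNorm x = 32 → act g x = x ∨ act g x = -x := by
    intro x hx hn
    obtain ⟨z, hz, e⟩ := hg x hx
    rcases short_congr (L := leechLattice)
      (fun y hy h0 => (mem_leechLattice_iff.1 hy).min_sqNorm h0) (mem_leechLattice_iff.2 hx)
      (by rw [sqNorm_act g hx, hn]; norm_num) (by rw [hn]; norm_num)
      ⟨z, mem_leechLattice_iff.2 hz, e⟩ with h | h | ⟨-, h, -⟩
    · exact Or.inl h
    · exact Or.inr h
    · rw [hn] at h; norm_num at h
  -- the sign is the same on vectors that are not orthogonal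
  have hlink : ∀ x y, IsLeech x → sqNorm x = 32 → IsLeech y → sqNorm y = 32 → dotInt x y ≠ 0 →
      ∀ ε : ℤ, (ε = 1 ∨ ε = -1) → act g x = ε • x → act g y = ε • y := by
    intro x y hx hnx hy hny hd ε hε hgx
    have hdot := dotInt_act g hx hy
    have hneg : ∀ a b : V, dotInt (-a) b = -dotInt a b := fun a b => by
      rw [dotInt_comm, dotInt_neg_right, dotInt_comm]
    rcases hmin y hy hny with hgy | hgy <;> rcases hε with rfl | rfl <;>
      simp only [one_smul, neg_smul] at hgx ⊢ <;> rw [hgx, hgy] at hdot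
    · exact hgy
    · rw [hneg] at hdot; exact absurd (by omega) hd
    · rw [dotInt_neg_right] at hdot; exact absurd (by omega) hd
    · exact hgy
  have h0 : IsLeech (pairVec oo ll) := isLeech_pairVec oo_ne_ll
  obtain ⟨ε, hε, hgε⟩ : ∃ ε : ℤ, (ε = 1 ∨ ε = -1) ∧ act g (pairVec oo ll) = ε • pairVec oo ll := by
    rcases hmin _ h0 (sqNorm_pairVec oo_ne_ll) with h | h
    · exact ⟨1, Or.inl rfl, by rw [h, one_smul]⟩
    · exact ⟨-1, Or.inr rfl, by rw [h, neg_one_smul]⟩
  have hstep : ∀ p q r, p ≠ q → p ≠ r → act g (pairVec p q) = ε • pairVec p q →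
      act g (pairVec p r) = ε • pairVec p r := by
    intro p q r hpq hpr h
    refine hlink _ _ (isLeech_pairVec hpq) (sqNorm_pairVec hpq) (isLeech_pairVec hpr)
      (sqNorm_pairVec hpr) ?_ ε hε h
    rw [dotInt_pairVec hpq]
    simp only [pairVec, true_or, if_true]
    split <;> norm_num
  have hswap : ∀ p q, pairVec p q = pairVec q p := fun p q => by
    funext i; simp only [pairVec, or_comm]
  have hoo : ∀ q, q ≠ oo → act g (pairVec oo q) = ε • pairVec oo q := fun q hq =>
    hstep oo ll q oo_ne_ll hq.symm hgε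
  have hpairs : ∀ p q, p ≠ q → act g (pairVec p q) = ε • pairVec p q := by
    intro p q hpq
    by_cases hp : p = oo
    · subst hp; exact hoo q hpq.symm
    · refine hstep p oo q hp hpq ?_
      rw [hswap]; exact hoo p hp
  have hall : ∀ x, IsLeech x → sqNorm x = 32 → act g x = ε • x := by
    intro x hx hn
    obtain ⟨p, hp⟩ : ∃ p, x p ≠ 0 := by
      by_contra h
      push Not at h
      have : sqNorm x = 0 := sum_eq_zero fun i _ => by rw [h i]; norm_num
      rw [hn] at this; norm_num at this
    have : ∃ q r, q ≠ r ∧ x q + x r ≠ 0 := by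
      by_contra h
      push Not at h
      obtain ⟨q, -, hq⟩ := Finset.exists_mem_notMem_of_card_lt_card
        (s := ({p} : Finset GolayPt)) (t := univ) (by simp)
      obtain ⟨r, -, hr⟩ := Finset.exists_mem_notMem_of_card_lt_card
        (s := ({p, q} : Finset GolayPt)) (t := univ)
        (lt_of_le_of_lt (card_le_two (a := p) (b := q)) (by simp))
      simp only [mem_insert, mem_singleton, not_or] at hq hr
      have := h p q (Ne.symm hq)
      have := h p r (Ne.symm hr.1)
      have := h q r (Ne.symm hr.2)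
      omega
    obtain ⟨q, r, hqr, hs⟩ := this
    refine hlink _ _ (isLeech_pairVec hqr) (sqNorm_pairVec hqr) hx hn ?_ ε hε (hpairs q r hqr)
    rw [dotInt_pairVec hqr]
    omega
  have hK : ∀ x, IsLeech x → act g x = ε • x := by
    let K : AddSubgroup V :=
      { carrier := {x | IsLeech x ∧ act g x = ε • x}
        zero_mem' := ⟨isLeech_zero, by rw [act_zero, smul_zero]⟩
        add_mem' := fun {a b} ha hb => ⟨ha.1.add hb.1, by
          rw [act_add g ha.1 hb.1, ha.2, hb.2, smul_add]⟩
        neg_mem' := fun {a} ha => ⟨ha.1.neg, by rw [act_neg g ha.1, ha.2, smul_neg]⟩ }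
    exact fun x hx => (H18.Monster.mem_of_min (K := K) (fun u hu hn => ⟨hu, hall u hu hn⟩) hx).2
  rw [mem_center_iff]
  rcases hε with rfl | rfl
  · exact Or.inl (act_eq_of_forall fun x hx => by rw [hK x hx, one_smul, one_act])
  · exact Or.inr (act_eq_of_forall fun x hx => by rw [hK x hx, neg_one_smul, act_negOne hx])

/-- Two vectors of squared length 64 have classes modulo two in one orbit. -/
theorem exists_act_class64 {x y : V} (hx : IsLeech x) (hnx : sqNorm x = 64) (hy : IsLeech y)
    (hny : sqNorm y = 64) : ∃ g : Co0, ∃ z, IsLeech z ∧ act g x - y = 2 • z := by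
  have key : ∀ w, IsLeech w → sqNorm w = 64 →
      ∃ g : Co0, ∃ t, IsLeech t ∧ act g w - eight oo = 2 • t := by
    intro w hw hnw
    obtain ⟨g, -, e⟩ := exists_act_eight hw hnw
    refine ⟨g, ?_⟩
    rcases e with e | e <;> rw [e]
    · exact ⟨0, isLeech_zero, by rw [sub_self, smul_zero]⟩
    · refine ⟨-pairVec oo ll, (isLeech_pairVec oo_ne_ll).neg, ?_⟩
      ext i
      by_cases a : i = oo
      · subst a; simp [eight, pairVec, oo_ne_ll]
      by_cases b : i = ll
      · subst b; simp [eight, pairVec, Ne.symm oo_ne_ll]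
      simp [eight, pairVec, a, b]
  obtain ⟨g, t, ht, e⟩ := key x hx hnx
  obtain ⟨h, s, hs, e'⟩ := key y hy hny
  refine ⟨h⁻¹ * g, act h⁻¹ (t - s), isLeech_act _ (ht.sub hs), ?_⟩
  have hd : act g x - act h y = 2 • (t - s) := by
    rw [nsmul_sub, ← e, ← e']; abel
  rw [mul_act, ← act_two_smul h⁻¹ (ht.sub hs), ← hd, act_sub h⁻¹ (isLeech_act g hx) (isLeech_act h hy),
    inv_act_act]

/-- A subgroup between twice the lattice and the lattice, invariant under `Co0`, is one of the two. -/
theorem invariant_modTwo {M : AddSubgroup V} (h2 : ∀ v, IsLeech v → (2 : ℕ) • v ∈ M)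
    (hinv : ∀ g : Co0, ∀ v, IsLeech v → v ∈ M → act g v ∈ M)
    {x : V} (hx : IsLeech x) (hxM : x ∈ M) (hx2 : ¬ ∃ z, IsLeech z ∧ x = 2 • z)
    {y : V} (hy : IsLeech y) : y ∈ M := by
  have hmin : ∀ v, IsLeech v → sqNorm v = 32 → v ∈ M → ∀ u, IsLeech u → u ∈ M := by
    intro v hv hn hvM u hu
    refine H18.Monster.mem_of_min (K := M) (fun w hw hnw => ?_) hu
    obtain ⟨g, -, e⟩ := exists_act_v0 hv hn
    obtain ⟨h, -, e'⟩ := exists_act_v0 hw hnw
    have : act (h⁻¹ * g) v = w := by rw [mul_act, e, ← e', inv_act_act]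
    exact this ▸ hinv _ v hv hvM
  obtain ⟨r, hr, hrn, z, hz, e⟩ := exists_short_rep hx
  have hrM : r ∈ M := by
    have : r = x - 2 • z := by rw [← e]; abel
    rw [this]; exact sub_mem hxM (h2 z hz)
  have hr0 : r ≠ 0 := by
    intro h0
    rw [h0, sub_zero] at e
    exact hx2 ⟨z, hz, e⟩
  have h32 := hr.min_sqNorm hr0
  have h16 := hr.sixteen_dvd_sqNorm
  have hp : ∀ a b : GolayPt, a ≠ b → IsLeech (pairVec a b) := fun a b h => isLeech_pairVec h
  rcases (show sqNorm r = 32 ∨ sqNorm r = 48 ∨ sqNorm r = 64 by omega) with h | h | h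
  · exact hmin r hr h hrM y hy
  · -- a norm 32 difference of two vectors of squared length 48
    have hall : ∀ u, IsLeech u → sqNorm u = 48 → u ∈ M := fun u hu hn => by
      obtain ⟨g, -, eg⟩ := exists_act48 hr h hu hn
      exact eg ▸ hinv g r hr hrM
    have hu : IsLeech Spor.vecV := mem_leechLattice_iff.1 (AddSubgroup.subset_closure Spor.vecV_mem_leechSet)
    have hw : IsLeech Spor.vecU' := mem_leechLattice_iff.1 (AddSubgroup.subset_closure Spor.vecU'_mem_leechSet)
    have hv := hall _ hu (by decide +kernel)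
    have hsum := hall _ (hu.add hw) (by decide +kernel)
    have : Spor.vecU' ∈ M := by simpa using sub_mem hsum hv
    exact hmin _ hw (by decide +kernel) this y hy
  · have hall : ∀ u, IsLeech u → sqNorm u = 64 → u ∈ M := fun u hu hn => by
      obtain ⟨g, s, hs, eg⟩ := exists_act_class64 hr h hu hn
      have : u = act g r - 2 • s := by rw [← eg]; abel
      rw [this]; exact sub_mem (hinv g r hr hrM) (h2 s hs)
    set u : V := pairVec none (some 1) + pairVec (some 2) (some 3)
    set w : V := -pairVec none (some 4)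
    have hu : IsLeech u := (hp _ _ (by decide)).add (hp _ _ (by decide))
    have hw : IsLeech w := (hp _ _ (by decide)).neg
    have hv := hall u hu (by decide +kernel)
    have hsum := hall (u + w) (hu.add hw) (by decide +kernel)
    have : w ∈ M := by simpa using sub_mem hsum hv
    exact hmin w hw (by decide +kernel) this y hy

/-- Halved differences from the extra point, twisted by the parity. -/
def chiMap : ↥leechLattice →+ (GolayPt → ZMod 2) where
  toFun x := fun i => (((x.1 i - x.1 none) / 2 + x.1 none : ℤ) : ZMod 2)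
  map_zero' := by funext i; simp
  map_add' := fun x y => by
    funext i
    have h : ∀ z : ↥leechLattice, 2 ∣ z.1 i - z.1 none := fun z => by
      obtain ⟨m, a, hxa, -, -⟩ := IsLeech.coe z
      rw [hxa i, hxa none]; omega
    have := h x; have := h y
    simp only [AddSubgroup.coe_add, Pi.add_apply]
    rw [← Int.cast_add, ZMod.intCast_eq_intCast_iff']
    omega

theorem chiMap_mem (x : ↥leechLattice) : chiMap x ∈ golayCode := by
  obtain ⟨m, a, hxa, ha, -⟩ := IsLeech.coe x
  have h := add_mem ha (Submodule.smul_mem golayCode ((x.1 none - a none : ℤ) : ZMod 2)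
    one_mem_golayCode)
  convert h using 1
  funext i
  simp only [chiMap, AddMonoidHom.coe_mk, ZeroHom.coe_mk, Pi.add_apply, Pi.smul_apply, Pi.one_apply,
    smul_eq_mul, mul_one, par_apply]
  rw [← Int.cast_add, ZMod.intCast_eq_intCast_iff']
  have := hxa i; have := hxa none
  omega

theorem chiMap_range : (chiMap.range : Set (GolayPt → ZMod 2)) = (golayCode : Set _) := by
  refine Set.Subset.antisymm (by rintro _ ⟨x, rfl⟩; exact chiMap_mem x) fun c hc => ?_
  have hone : ∀ w : GolayPt → ZMod 2, w ∈ golayCode → w none = 0 →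
      w ∈ (chiMap.range : Set (GolayPt → ZMod 2)) := by
    intro w hw h0
    refine ⟨⟨twice w, mem_leechLattice_iff.2 (isLeech_twice hw)⟩, funext fun i => ?_⟩
    have hz : ((w none).val : ℤ) = 0 := by rw [h0]; rfl
    simp only [chiMap, AddMonoidHom.coe_mk, ZeroHom.coe_mk, twice, hz, mul_zero, sub_zero, add_zero]
    rw [Int.mul_ediv_cancel_left _ (by norm_num : (2 : ℤ) ≠ 0)]
    exact intCast_val _
  rcases (show ∀ z : ZMod 2, z = 0 ∨ z = 1 by decide) (c none) with h | h
  · exact hone c hc h
  · obtain ⟨y, hy⟩ := hone (c + 1) (add_mem hc one_mem_golayCode) (by simp [h]; rfl)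
    refine ⟨⟨Spor.vecV, AddSubgroup.subset_closure Spor.vecV_mem_leechSet⟩ + y, ?_⟩
    rw [map_add, hy]
    funext i
    have : chiMap ⟨Spor.vecV, AddSubgroup.subset_closure Spor.vecV_mem_leechSet⟩ i = 1 := by
      revert i; decide +kernel
    have hz : ∀ a : ZMod 2, 1 + (a + 1) = a := by decide
    rw [Pi.add_apply, this, Pi.add_apply, Pi.one_apply, hz]

/-- The kernel of `chiMap`, in `ℤ²⁴`. -/
def singular : AddSubgroup V := chiMap.ker.map leechLattice.subtype

theorem singular_spec :
    singular ≤ leechLattice ∧ (∀ v ∈ leechLattice, (2 : ℤ) • v ∈ singular) ∧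
      (singular.addSubgroupOf leechLattice).index = 2 ^ 12 ∧ ∀ v ∈ singular, (32 : ℤ) ∣ sqNorm v := by
  refine ⟨?_, fun v hv => ⟨(2 : ℤ) • ⟨v, hv⟩, ?_, rfl⟩, ?_, ?_⟩
  · rintro _ ⟨x, -, rfl⟩; exact x.2
  · rw [SetLike.mem_coe, AddMonoidHom.mem_ker, map_zsmul]
    funext i
    have hz : ∀ a : ZMod 2, (2 : ℤ) • a = 0 := by decide
    exact hz _
  · have e : singular.addSubgroupOf leechLattice = chiMap.ker := by
      ext x
      rw [AddSubgroup.mem_addSubgroupOf, singular]
      exact ⟨fun ⟨y, hy, e⟩ => Subtype.ext e ▸ hy, fun h => ⟨x, h, rfl⟩⟩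
    rw [e, AddSubgroup.index_ker, show (Nat.card chiMap.range : ℕ) = Nat.card golayCode from
      Nat.card_congr (Equiv.setCongr chiMap_range), H9.golayCode_natCard]
    norm_num
  · rintro _ ⟨x, hx, rfl⟩
    have hk : ∀ i, (2 : ℤ) ∣ (x.1 i - x.1 none) / 2 + x.1 none := fun i => by
      have h := congrFun (AddMonoidHom.mem_ker.1 hx) i
      simpa only [chiMap, AddMonoidHom.coe_mk, ZeroHom.coe_mk, Pi.zero_apply,
        ZMod.intCast_zmod_eq_zero_iff_dvd, Nat.cast_ofNat] using h
    obtain ⟨m, a, hxa, -, t, ht⟩ := IsLeech.coe x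
    have hev : (2 : ℤ) ∣ m := by have := hk none; have := hxa none; omega
    obtain ⟨m', hm'⟩ := hev
    have h4 : ∀ i, 4 ∣ x.1 i - x.1 none := fun i => by
      have := hk i; have := hxa i; have := hxa none; omega
    choose k hk4 using h4
    obtain ⟨c, hc⟩ : (2 : ℤ) ∣ x.1 none := by have := hxa none; omega
    have hs : ∑ i, x.1 i = 48 * c + 4 * ∑ i, k i := by
      rw [sum_congr rfl (g := fun i => 2 * c + 4 * k i) fun i _ => by have := hk4 i; omega,
        sum_add_distrib, mul_sum, sum_const, card_univ]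
      simp; ring
    have hn : sqNorm x.1 = 96 * c ^ 2 + 16 * c * ∑ i, k i + 16 * ∑ i, k i ^ 2 := by
      unfold sqNorm
      rw [sum_congr rfl (g := fun i => 4 * c ^ 2 + 16 * c * k i + 16 * k i ^ 2) fun i _ => by
        rw [show x.1 i = 2 * c + 4 * k i by have := hk4 i; omega]; ring,
        sum_add_distrib, sum_add_distrib, mul_sum, mul_sum, sum_const, card_univ]
      simp; ring
    rw [hs] at ht
    have hS : (2 : ℤ) ∣ ∑ i, k i := by omega
    have hsq : (2 : ℤ) ∣ ∑ i, k i ^ 2 := by
      have hd : (2 : ℤ) ∣ ∑ i, (k i ^ 2 - k i) := Finset.dvd_sum fun i _ => by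
        rw [show k i ^ 2 - k i = (k i - 1) * k i by ring]
        exact (Int.even_mul_pred_self (k i)).two_dvd.trans (by rw [mul_comm])
      rw [Finset.sum_sub_distrib] at hd
      omega
    obtain ⟨p, hp⟩ := hS
    obtain ⟨q, hq⟩ := hsq
    show (32 : ℤ) ∣ sqNorm x.1
    rw [hn, hp, hq]
    exact ⟨3 * c ^ 2 + c * p + q, by ring⟩

end Cfsg.Agent.H15
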